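import Cfsg.Agent.Lib.Helper51.OE.F1
import Cfsg.Agent.Lib.Helper57.OE.Base
import Cfsg.Agent.Lib.Helper98.OE.G0

set_option autoImplicit false
set_option linter.unusedSectionVars false
set_option linter.unusedVariables false

namespace Cfsg.Agent.Lib.Helper98.OE

open Cfsg Cfsg.Geo Matrix Cfsg.Agent.Lib.Helper13.Asch Cfsg.Agent.Lib.Helper90.Sp
open Cfsg.Agent.Lib.Helper57.OE (IsLagr)
open Cfsg.Agent.Lib.Helper51.OE (perp mem_perp mem_perp' finrank_perp perp_perp perp_sup le_perp_of_ts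
  polar_eq_zero_of_ts exists_lagr_ge)
open scoped Kronecker MatrixGroups

variable {ι : Type} [Fintype ι] [DecidableEq ι] {F : Type*} [Field F] {Q : (ι → F) → F}

/-- G1 -/
theorem plus_perp (hQ : IsNondegenerateQuadraticForm Q) (hplus : IsPlusTypeOn Q ⊤)
    (A : Submodule F (ι → F)) (hnd : IsNondegenerateOn (QuadraticMap.polar Q) A)
    (hA : IsPlusTypeOn Q A) : IsPlusTypeOn Q (perp hQ A) := by
  obtain ⟨U0, hU0A, hU0ts, hU0dim⟩ := hA
  obtain ⟨L, hL, hU0L⟩ := exists_lagr_ge hQ hplus U0 hU0ts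
  have hc : IsCompl A (perp hQ A) := (perp_nondeg hQ A hnd).2
  have hdisj : A ⊓ perp hQ A = ⊥ := hc.inf_eq_bot
  -- A ⊓ perp U0 = U0
  have h1 : perp hQ (A ⊔ perp hQ U0) = ⊥ := by
    rw [perp_sup, perp_perp, eq_bot_iff, ← hdisj, inf_comm]
    exact inf_le_inf_right _ hU0A
  have h2 : Module.finrank F ↥(A ⊔ perp hQ U0) = Fintype.card ι := by
    have := finrank_perp hQ (A ⊔ perp hQ U0)
    rw [h1, finrank_bot] at this
    omega
  have h3 := Submodule.finrank_sup_add_finrank_inf_eq A (perp hQ U0)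
  have h4 := finrank_perp hQ U0
  have h5 := finrank_perp hQ A
  have h6 : U0 = A ⊓ perp hQ U0 := by
    apply Submodule.eq_of_le_of_finrank_eq (le_inf hU0A (le_perp_of_ts hQ hU0ts))
    omega
  -- L = U0 ⊔ T
  have h7 : L ≤ U0 ⊔ (L ⊓ perp hQ A) := by
    intro l hl
    have hlt : l ∈ A ⊔ perp hQ A := by rw [hc.sup_eq_top]; trivial
    obtain ⟨a, ha, b, hb, rfl⟩ := Submodule.mem_sup.1 hlt
    have haU : a ∈ U0 := by
      rw [h6]
      refine ⟨ha, (mem_perp hQ).2 (fun u hu => ?_)⟩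
      have e1 := polar_eq_zero_of_ts hL.1 (hU0L hu) hl
      rw [hQ.polar_bilinear.add_right, (mem_perp hQ).1 hb u (hU0A hu), add_zero] at e1
      exact e1
    refine Submodule.mem_sup.2 ⟨a, haU, b, ⟨?_, hb⟩, rfl⟩
    have : b = (a + b) - a := by abel
    rw [this]
    exact L.sub_mem hl (hU0L haU)
  have h8 : U0 ⊔ (L ⊓ perp hQ A) = L := le_antisymm (sup_le hU0L inf_le_left) h7
  have h9 : U0 ⊓ (L ⊓ perp hQ A) = ⊥ := by
    rw [eq_bot_iff, ← hdisj]
    exact inf_le_inf hU0A inf_le_right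
  have h10 := Submodule.finrank_sup_add_finrank_inf_eq U0 (L ⊓ perp hQ A)
  rw [h8, h9, finrank_bot] at h10
  refine ⟨L ⊓ perp hQ A, inf_le_right, fun w hw => hL.1 w hw.1, ?_⟩
  have h11 := hL.2
  omega

end Cfsg.Agent.Lib.Helper98.OE
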