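import Cfsg.Agent.Lib.Helper51.OE.F1
import Cfsg.Agent.Lib.Helper57.OE.Base
import Cfsg.Agent.Lib.Helper13.OrthHalves
import Cfsg.Agent.Lib.Helper94.QuadWrap

set_option autoImplicit false
set_option linter.unusedSectionVars false
set_option linter.unusedVariables false

namespace Cfsg.Agent.Lib.Helper98.OE

open Cfsg Cfsg.Geo Matrix Cfsg.Agent.Lib.Helper13.Asch Cfsg.Agent.Lib.Helper90.Sp
open Cfsg.Agent.Lib.Helper57.OE (IsLagr)
open Cfsg.Agent.Lib.Helper51.OE (perp mem_perp mem_perp' finrank_perp perp_perp perp_sup le_perp_of_ts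
  polar_eq_zero_of_ts exists_lagr_ge)
open scoped Kronecker MatrixGroups

variable {ι : Type} [Fintype ι] [DecidableEq ι] {F : Type*} [Field F] {Q : (ι → F) → F}

/-- G4 -/
theorem neg_self_isometry [Fintype F] (hQ : IsNondegenerateQuadraticForm Q)
    (W : Submodule F (ι → F)) (hnd : IsNondegenerateOn (QuadraticMap.polar Q) W)
    (hev : Even (Module.finrank F W)) :
    ∃ J : W ≃ₗ[F] W, ∀ w : W, Q ((J w : W) : ι → F) = - Q (w : ι → F) := by
  by_cases h2 : (2 : F) = 0
  · refine ⟨LinearEquiv.refl F W, fun w => ?_⟩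
    have : Q (w : ι → F) + Q (w : ι → F) = 0 := by rw [← two_mul, h2, zero_mul]
    simpa using eq_neg_of_add_eq_zero_left this
  · obtain ⟨j, hj⟩ := hev
    obtain ⟨J0, hJ0⟩ := Cfsg.Agent.Lib.Helper13.O.exists_neg_similarity h2
      (Cfsg.Agent.Lib.Helper94.quadOf Q hQ) j W (by omega)
      (fun w hw hw0 => (hnd w hw hw0).1)
    have hJ0' : ∀ w ∈ W, J0 w ∈ W ∧ Q (J0 w) = - Q w := hJ0
    set J1 : W →ₗ[F] W := J0.restrict (fun w hw => (hJ0' w hw).1) with hJ1
    have hJ1a : ∀ w : W, ((J1 w : W) : ι → F) = J0 (w : ι → F) := fun w => rfl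
    have hinj : Function.Injective J1 := by
      rw [← LinearMap.ker_eq_bot, LinearMap.ker_eq_bot']
      intro w hw
      by_contra hw0
      have hw0' : (w : ι → F) ≠ 0 := fun h => hw0 (Subtype.ext h)
      obtain ⟨⟨x, hx, hxw⟩, -⟩ := hnd w w.2 hw0'
      apply hxw
      have h3 : J0 (w : ι → F) = 0 := by
        rw [← hJ1a, hw]; rfl
      have h4 : Q (J0 (x + w)) = - Q (x + w) := (hJ0' _ (W.add_mem hx w.2)).2
      have h5 : Q (J0 x) = - Q x := (hJ0' x hx).2
      have h6 : Q (J0 (w : ι → F)) = - Q (w : ι → F) := (hJ0' w w.2).2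
      have h7 : Q (0 : ι → F) = 0 := Cfsg.Agent.Lib.Helper57.OE.Q_zero hQ
      rw [map_add, h3, add_zero, h5] at h4
      rw [h3, h7] at h6
      unfold QuadraticMap.polar
      linear_combination h4 - h6
    refine ⟨LinearEquiv.ofInjectiveEndo J1 hinj, fun w => ?_⟩
    rw [LinearEquiv.coe_ofInjectiveEndo, hJ1a]
    exact (hJ0' w w.2).2

end Cfsg.Agent.Lib.Helper98.OE
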