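import Cfsg.Agent.Lib.Helper57.OE.Defs
import Cfsg.Agent.Lib.Helper45.OSubWrap
import Cfsg.Agent.Lib.Helper94.QuadWrap

set_option autoImplicit false
set_option linter.unusedSectionVars false
set_option linter.unusedVariables false

/-! # Even-dimensional orthogonal groups: rational hyperbolic frames (piece P3b) -/

namespace Cfsg.Agent.Lib.Helper98.OE

open Cfsg Cfsg.Geo Matrix QuadraticMap Module
open Cfsg.Agent.Lib.Helper45.OSub Cfsg.Agent.Lib.Helper45.SpSub Cfsg.Agent.Lib.Helper14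
open Cfsg.Agent.Lib.Helper94
open scoped MatrixGroups

variable {ι : Type} [Fintype ι] [DecidableEq ι] {F : Type*} [Field F] {Q : (ι → F) → F}

lemma p3_nd0 {F₀ : Subfield F} {P : GL ι F} (Q : QuadraticForm F (ι → F))
    (hQ : (polarBilin Q).Nondegenerate) (hP : ∀ u : ι → F₀, Q (EE F₀ P u) ∈ F₀) :
    (polarBilin (Qq Q hP)).Nondegenerate := by
  have hz : ∀ x : ι → F₀, (∀ y, polar (Qq Q hP) x y = 0) → x = 0 := by
    intro x hx
    have h0 : EE F₀ P x = 0 := by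
      apply hQ.1
      intro y
      change polar Q (EE F₀ P x) y = 0
      have hy : y ∈ Submodule.span F (Set.range (EE F₀ P)) := (span_EE F₀ P) ▸ Submodule.mem_top
      induction hy using Submodule.span_induction with
      | mem z hz =>
        obtain ⟨z, rfl⟩ := hz
        rw [← Qq_polar Q hP, hx z]; rfl
      | zero => simp
      | add a b _ _ ha hb => rw [polar_add_right, ha, hb, add_zero]
      | smul a b _ hb => rw [polar_smul_right, hb, smul_zero]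
    apply EE_injective F₀ P
    rw [h0]
    have := EE_smul F₀ P 0 0
    simpa using this.symm
  refine ⟨fun x hx => hz x hx, fun x hx => hz x (fun y => ?_)⟩
  rw [polar_comm]
  exact hx y

/-- the multiple `ζ Q` as a Mathlib quadratic form -/
noncomputable def p3Q (hQ : IsNondegenerateQuadraticForm Q) (ζ : F) : QuadraticForm F (ι → F) :=
  ζ • quadOf Q hQ

lemma p3Q_apply (hQ : IsNondegenerateQuadraticForm Q) (ζ : F) (v : ι → F) :
    p3Q hQ ζ v = ζ * Q v := rfl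

lemma p3Q_polar (hQ : IsNondegenerateQuadraticForm Q) (ζ : F) (u v : ι → F) :
    polar (p3Q hQ ζ) u v = ζ * polar Q u v := by
  simp only [polar, p3Q_apply]
  ring

lemma p3Q_nd (hQ : IsNondegenerateQuadraticForm Q) {ζ : F} (hζ : ζ ≠ 0) :
    (polarBilin (p3Q hQ ζ)).Nondegenerate :=
  nondeg_smul _ (pB_quadOf_nondegenerate Q hQ) hζ

lemma p3Q_rat (hQ : IsNondegenerateQuadraticForm Q) {ζ : F} {F₀ : Subfield F} {P : GL ι F}
    (hP : IsQuadFormRationalStructure (fun v => ζ * Q v) F₀ P) (u : ι → F₀) :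
    p3Q hQ ζ (EE F₀ P u) ∈ F₀ := hP _ (fun i => (u i).2)

/-- P3b -/
theorem exists_rational_frame [Fintype F] (hQ : IsNondegenerateQuadraticForm Q) (F₀ : Subfield F)
    (P : GL ι F) (ζ : F) (hζ : ζ ≠ 0)
    (hP : IsQuadFormRationalStructure (fun v => ζ * Q v) F₀ P) (k : ℕ)
    (hk : 2 * k + 1 ≤ Fintype.card ι) :
    ∃ e f : Fin k → (ι → F), (∀ i j, e i j ∈ F₀) ∧ (∀ i j, f i j ∈ F₀) ∧
      (∀ i, Q ((P : Matrix ι ι F) *ᵥ e i) = 0) ∧ (∀ i, Q ((P : Matrix ι ι F) *ᵥ f i) = 0) ∧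
      (∀ i j, ζ * QuadraticMap.polar Q ((P : Matrix ι ι F) *ᵥ e i) ((P : Matrix ι ι F) *ᵥ f j) =
        if i = j then 1 else 0) ∧
      (∀ i j, QuadraticMap.polar Q ((P : Matrix ι ι F) *ᵥ e i) ((P : Matrix ι ι F) *ᵥ e j) = 0) ∧
      (∀ i j, QuadraticMap.polar Q ((P : Matrix ι ι F) *ᵥ f i) ((P : Matrix ι ι F) *ᵥ f j) = 0) := by
  have hnd := p3_nd0 (p3Q hQ ζ) (p3Q_nd hQ hζ) (p3Q_rat hQ hP)
  obtain ⟨e, f, A, h, -⟩ := witt_core (F := F₀) (Fintype.card ι - 2 * k) (by omega) k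
    (Qq (p3Q hQ ζ) (p3Q_rat hQ hP)) hnd (by simp; omega)
  have hq : ∀ u : ι → F₀, Qq (p3Q hQ ζ) (p3Q_rat hQ hP) u = 0 → Q (EE F₀ P u) = 0 := by
    intro u hu
    have h1 : ζ * Q (EE F₀ P u) = 0 := by
      rw [← p3Q_apply hQ, ← Qq_coe (p3Q hQ ζ) (p3Q_rat hQ hP), hu]; rfl
    exact (mul_eq_zero.1 h1).resolve_left hζ
  have hp : ∀ u v : ι → F₀, ζ * polar Q (EE F₀ P u) (EE F₀ P v) =
      ((polar (Qq (p3Q hQ ζ) (p3Q_rat hQ hP)) u v : F₀) : F) := by
    intro u v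
    rw [Qq_polar, p3Q_polar]
  have hp0 : ∀ u v : ι → F₀, polar (Qq (p3Q hQ ζ) (p3Q_rat hQ hP)) u v = 0 →
      polar Q (EE F₀ P u) (EE F₀ P v) = 0 := by
    intro u v huv
    have h1 := hp u v
    rw [huv] at h1
    exact (mul_eq_zero.1 h1).resolve_left hζ
  refine ⟨fun i j => (e i j : F), fun i j => (f i j : F), fun i j => (e i j).2,
    fun i j => (f i j).2, fun i => hq _ (h.Qe i), fun i => hq _ (h.Qf i), fun i j => ?_,
    fun i j => hp0 _ _ (h.ee i j), fun i j => hp0 _ _ (h.ff i j)⟩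
  have h1 := hp (e i) (f j)
  rw [h.ef] at h1
  refine h1.trans ?_
  split_ifs <;> simp

end Cfsg.Agent.Lib.Helper98.OE
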