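import Cfsg.Agent.Lib.Helper51.OE.F1
import Cfsg.Agent.Lib.Helper57.OE.Base
import Cfsg.Agent.Lib.Helper98.OE.G0

set_option autoImplicit false
set_option linter.unusedSectionVars false
set_option linter.unusedVariables false

namespace Cfsg.Agent.Lib.Helper98.OE

open Cfsg Cfsg.Geo Matrix Cfsg.Agent.Lib.Helper13.Asch Cfsg.Agent.Lib.Helper90.Sp
open Cfsg.Agent.Lib.Helper57.OE (IsLagr)
open Cfsg.Agent.Lib.Helper51.OE (perp mem_perp mem_perp' finrank_perp perp_perp perp_sup le_perp_of_ts
  polar_eq_zero_of_ts exists_lagr_ge)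
open scoped Kronecker MatrixGroups

variable {ι : Type} [Fintype ι] [DecidableEq ι] {F : Type*} [Field F] {Q : (ι → F) → F}

/-- G5 -/
theorem orthDecomp_of_pair (hQ : IsNondegenerateQuadraticForm Q) (W : Submodule F (ι → F))
    (hnd : IsNondegenerateOn (QuadraticMap.polar Q) W) {m : ℕ} (hm : Module.finrank F W = m)
    (hpos : 0 < m) (hdim : 2 * m = Fintype.card ι) (hiso : AreIsometricFor Q W (perp hQ W)) :
    IsOrthogonalMDecomposition Q m ![W, perp hQ W] := by
  obtain ⟨hnd', hc⟩ := perp_nondeg hQ W hnd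
  have hf := finrank_perp hQ W
  have hiso' : AreIsometricFor Q (perp hQ W) W := by
    obtain ⟨e, he⟩ := hiso
    refine ⟨e.symm, fun w => ?_⟩
    have := he (e.symm w)
    rw [LinearEquiv.apply_symm_apply] at this
    exact this.symm
  refine ⟨⟨⟨le_rfl, hpos, ?_, ?_, ?_⟩, ?_, ?_⟩, ?_⟩
  · rw [Fin.forall_fin_two]
    refine ⟨hm, ?_⟩
    change Module.finrank F (perp hQ W) = m
    omega
  · rw [iSupIndep_pair (i := (0 : Fin 2)) (j := 1) (by decide) (by decide)]
    exact hc.disjoint
  · rw [eq_top_iff, ← hc.sup_eq_top]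
    exact sup_le (le_iSup (![W, perp hQ W]) 0) (le_iSup (![W, perp hQ W]) 1)
  · rw [Fin.forall_fin_two]
    exact ⟨hnd, hnd'⟩
  · intro i j hij
    fin_cases i <;> fin_cases j
    · exact absurd rfl hij
    · intro u hu v hv
      exact (mem_perp hQ).1 hv u hu
    · intro u hu v hv
      exact (mem_perp' hQ).1 hu v hv
    · exact absurd rfl hij
  · intro i j
    fin_cases i <;> fin_cases j
    · exact ⟨LinearEquiv.refl F _, fun w => rfl⟩
    · exact hiso
    · exact hiso'
    · exact ⟨LinearEquiv.refl F _, fun w => rfl⟩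

end Cfsg.Agent.Lib.Helper98.OE
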