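import Cfsg.Agent.Lib.Helper98.OE.P3cAux
import Cfsg.Agent.Lib.Helper37.OE.P3a

set_option autoImplicit false
set_option linter.unusedSectionVars false
set_option linter.unusedVariables false

/-! # Even-dimensional orthogonal groups: a form rational over the subfield of index two is of
plus type (piece P3c) -/

namespace Cfsg.Agent.Lib.Helper98.OE

open Cfsg Cfsg.Geo Matrix
open scoped MatrixGroups

variable {ι : Type} [Fintype ι] [DecidableEq ι] {F : Type*} [Field F] {Q : (ι → F) → F}

/-- P3c -/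
theorem plus_of_index_two [Fintype F] (hQ : IsNondegenerateQuadraticForm Q)
    (hev : Even (Fintype.card ι)) (F₀ : Subfield F) (hcard : Fintype.card F = Nat.card F₀ ^ 2)
    (P : GL ι F) (ζ : F) (hζ : ζ ≠ 0)
    (hP : IsQuadFormRationalStructure (fun v => ζ * Q v) F₀ P) : IsPlusTypeOn Q ⊤ := by
  refine plus_of_index_two_aux hQ hev F₀ (fun c hc => ?_) P ζ hζ hP
  obtain ⟨x, y, hxy, h⟩ := Cfsg.Agent.Lib.Helper37.OE.binary_zero F₀ hcard 1 1 c F₀.one_mem
    F₀.one_mem hc
  exact ⟨x, y, hxy, by linear_combination h⟩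

end Cfsg.Agent.Lib.Helper98.OE
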