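import Cfsg.Agent.Lib.Helper98.OE.P3b

set_option autoImplicit false
set_option linter.unusedSectionVars false
set_option linter.unusedVariables false

/-! # Even-dimensional orthogonal groups: a form rational over the subfield of index two is of
plus type (piece P3c, core) -/

namespace Cfsg.Agent.Lib.Helper98.OE

open Cfsg Cfsg.Geo Matrix QuadraticMap Module
open Cfsg.Agent.Lib.Helper45.OSub Cfsg.Agent.Lib.Helper45.SpSub Cfsg.Agent.Lib.Helper14
open Cfsg.Agent.Lib.Helper94
open scoped MatrixGroups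

variable {ι : Type} [Fintype ι] [DecidableEq ι] {F : Type*} [Field F] {Q : (ι → F) → F}

lemma p3_sing_span {V : Type*} [AddCommGroup V] [Module F V] (Q' : QuadraticForm F V) {I : Type*}
    (g : I → V) (h1 : ∀ i, Q' (g i) = 0) (h2 : ∀ i j, polar Q' (g i) (g j) = 0) :
    ∀ w ∈ Submodule.span F (Set.range g), Q' w = 0 := by
  have A : ∀ w ∈ Submodule.span F (Set.range g), ∀ j, polar Q' w (g j) = 0 := by
    intro w hw j
    induction hw using Submodule.span_induction with
    | mem z hz => obtain ⟨i, rfl⟩ := hz; exact h2 i j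
    | zero => simp
    | add a b _ _ ha hb => rw [polar_add_left, ha, hb, add_zero]
    | smul a b _ hb => rw [polar_smul_left, hb, smul_zero]
  have B : ∀ w ∈ Submodule.span F (Set.range g), ∀ v ∈ Submodule.span F (Set.range g),
      polar Q' w v = 0 := by
    intro w hw v hv
    induction hv using Submodule.span_induction with
    | mem z hz => obtain ⟨i, rfl⟩ := hz; exact A w hw i
    | zero => simp
    | add a b _ _ ha hb => rw [polar_add_right, ha, hb, add_zero]
    | smul a b _ hb => rw [polar_smul_right, hb, smul_zero]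
  intro w hw
  induction hw using Submodule.span_induction with
  | mem z hz => obtain ⟨i, rfl⟩ := hz; exact h1 i
  | zero => simp
  | add a b ha' hb' ha hb => rw [QuadraticMap.map_add (⇑Q') a b, ha, hb, B a ha' b hb']; simp
  | smul a b _ hb => rw [QuadraticMap.map_smul, hb, smul_zero]

lemma p3_plus_of_sys {V : Type*} [AddCommGroup V] [Module F V] (Q' : QuadraticForm F V) {k : ℕ}
    {e f : Fin k → V} (h : HypSys Q' e f) (z : V) (hz0 : z ≠ 0) (hz : Q' z = 0)
    (horth : ∀ i, polar Q' (e i) z = 0 ∧ polar Q' (f i) z = 0) :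
    ∃ U : Submodule F V, (∀ w ∈ U, Q' w = 0) ∧ finrank F U = k + 1 := by
  have hli0 : LinearIndependent F (fun _ : Fin 1 => z) := by
    rw [linearIndependent_unique_iff]
    exact hz0
  have hli := h.linearIndependent_sum (fun _ : Fin 1 => z) hli0 (fun i _ => horth i)
  have hinj : Function.Injective (Sum.map Sum.inl id : Fin k ⊕ Fin 1 → (Fin k ⊕ Fin k) ⊕ Fin 1) :=
    Function.Injective.sumMap Sum.inl_injective Function.injective_id
  have hli2 := hli.comp _ hinj
  have hzz : polar Q' z z = 0 := by rw [polar_self, hz]; simp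
  refine ⟨Submodule.span F (Set.range (Sum.elim (Sum.elim e f) (fun _ : Fin 1 => z) ∘
    (Sum.map Sum.inl id : Fin k ⊕ Fin 1 → (Fin k ⊕ Fin k) ⊕ Fin 1))), ?_, ?_⟩
  · apply p3_sing_span
    · rintro (i | i)
      · exact h.Qe i
      · exact hz
    · rintro (i | i) (j | j)
      · exact h.ee i j
      · exact (horth i).1
      · change polar Q' z (e j) = 0
        rw [polar_comm]; exact (horth j).1
      · exact hzz
  · rw [finrank_span_eq_card hli2]
    simp

/-- P3c, with the zero of the binary form as a hypothesis -/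
theorem plus_of_index_two_aux [Fintype F] (hQ : IsNondegenerateQuadraticForm Q)
    (hev : Even (Fintype.card ι)) (F₀ : Subfield F)
    (hbz : ∀ c ∈ F₀, ∃ x y : F, (x ≠ 0 ∨ y ≠ 0) ∧ x ^ 2 + x * y + c * y ^ 2 = 0)
    (P : GL ι F) (ζ : F) (hζ : ζ ≠ 0)
    (hP : IsQuadFormRationalStructure (fun v => ζ * Q v) F₀ P) : IsPlusTypeOn Q ⊤ := by
  obtain ⟨m, hm⟩ := hev
  rcases m with _ | k
  · refine ⟨⊥, bot_le, ?_, ?_⟩
    · intro w hw
      rw [Submodule.mem_bot] at hw
      subst hw
      have := hQ.smul 0 0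
      simpa using this
    · simp [hm]
  have hnd := p3_nd0 (p3Q hQ ζ) (p3Q_nd hQ hζ) (p3Q_rat hQ hP)
  set q := Qq (p3Q hQ ζ) (p3Q_rat hQ hP) with hqdef
  obtain ⟨e, f, A, h, horth, hA, hrad⟩ := witt_core (F := F₀) 2 (by norm_num) k q hnd
    (by simp; omega)
  have hqc : ∀ u : ι → F₀, p3Q hQ ζ (EE F₀ P u) = ((q u : F₀) : F) := fun u => rfl
  have hpc : ∀ u v : ι → F₀, polar (p3Q hQ ζ) (EE F₀ P u) (EE F₀ P v) =
      ((polar q u v : F₀) : F) := fun u v => (Qq_polar _ _ u v).symm
  have hsys : HypSys (p3Q hQ ζ) (fun i => EE F₀ P (e i)) (fun i => EE F₀ P (f i)) := by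
    refine ⟨fun i => ?_, fun i => ?_, fun i j => ?_, fun i j => ?_, fun i j => ?_⟩
    · rw [hqc, h.Qe]; rfl
    · rw [hqc, h.Qf]; rfl
    · rw [hpc, h.ef]; split_ifs <;> simp
    · rw [hpc, h.ee]; rfl
    · rw [hpc, h.ff]; rfl
  have key : ∃ z : ι → F, z ≠ 0 ∧ p3Q hQ ζ z = 0 ∧
      ∀ i, polar (p3Q hQ ζ) (EE F₀ P (e i)) z = 0 ∧ polar (p3Q hQ ζ) (EE F₀ P (f i)) z = 0 := by
    rcases core_two q A hA hrad with ⟨u, hu, w, hw, h1, h2, h3⟩ | ⟨x, hx, y, hy, h1, h2, h3⟩
    · refine ⟨EE F₀ P u, ?_, ?_, fun i => ⟨?_, ?_⟩⟩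
      · intro h0
        have h4 := hpc u w
        rw [h0, h3] at h4
        simp at h4
      · rw [hqc, h1]; rfl
      · rw [hpc, (horth i u hu).1]; rfl
      · rw [hpc, (horth i u hu).2]; rfl
    · obtain ⟨α, β, hαβ, hz⟩ := hbz (q y : F₀) (q y).2
      have hxx : polar (p3Q hQ ζ) (EE F₀ P x) (EE F₀ P x) = 2 := by
        rw [polar_self, hqc, h1]; simp
      have hyy : polar (p3Q hQ ζ) (EE F₀ P y) (EE F₀ P y) = 2 * ((q y : F₀) : F) := by
        rw [polar_self, hqc]; simp
      have hxy : polar (p3Q hQ ζ) (EE F₀ P x) (EE F₀ P y) = 1 := by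
        rw [hpc, h2]; rfl
      refine ⟨α • EE F₀ P x + β • EE F₀ P y, ?_, ?_, fun i => ⟨?_, ?_⟩⟩
      · intro h0
        have e1 : polar (p3Q hQ ζ) (α • EE F₀ P x + β • EE F₀ P y) (EE F₀ P x) = 0 := by
          rw [h0]; simp
        have e2 : polar (p3Q hQ ζ) (α • EE F₀ P x + β • EE F₀ P y) (EE F₀ P y) = 0 := by
          rw [h0]; simp
        rw [polar_add_left, polar_smul_left, polar_smul_left, hxx,
          polar_comm _ (EE F₀ P y) (EE F₀ P x), hxy] at e1
        rw [polar_add_left, polar_smul_left, polar_smul_left, hxy, hyy] at e2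
        simp only [smul_eq_mul, mul_one] at e1 e2
        -- e1 : α * 2 + β = 0 ; e2 : α + β * (2 * c) = 0
        have hβ : β = -(2 * α) := by linear_combination e1
        have e3 : α * (1 - 4 * ((q y : F₀) : F)) = 0 := by
          rw [hβ] at e2
          linear_combination e2
        rcases mul_eq_zero.1 e3 with h4 | h4
        · rcases hαβ with h5 | h5
          · exact h5 h4
          · apply h5; rw [hβ, h4]; simp
        · have h5 : (1 + 1 + 1 + 1 : F₀) * q y = 1 := by
            apply Subtype.ext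
            push_cast
            linear_combination -h4
          apply h3 (-(2 * q y))
          linear_combination (q y) * h5
      · rw [QuadraticMap.map_add (⇑(p3Q hQ ζ)), QuadraticMap.map_smul, QuadraticMap.map_smul, polar_smul_left,
          polar_smul_right, hxy, hqc, hqc, h1]
        simp only [smul_eq_mul, mul_one]
        push_cast
        linear_combination hz
      · rw [polar_add_right, polar_smul_right, polar_smul_right, hpc, hpc, (horth i x hx).1,
          (horth i y hy).1]
        simp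
      · rw [polar_add_right, polar_smul_right, polar_smul_right, hpc, hpc, (horth i x hx).2,
          (horth i y hy).2]
        simp
  obtain ⟨z, hz0, hz, hzo⟩ := key
  obtain ⟨U, hU, hdim⟩ := p3_plus_of_sys (p3Q hQ ζ) hsys z hz0 hz hzo
  refine ⟨U, le_top, fun w hw => ?_, ?_⟩
  · have := hU w hw
    rw [p3Q_apply] at this
    exact (mul_eq_zero.1 this).resolve_left hζ
  · rw [hdim, finrank_top]
    simp
    omega

end Cfsg.Agent.Lib.Helper98.OE
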